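import Mathlib
import Cfsg.Agent.Lib.Helper68.Half.Defs

/-!
# HALF (= S3371): package [IMPBASIS] (and shared facts on `Impr 2`)
-/

set_option autoImplicit false

universe u v

namespace Cfsg.Agent.Lib.Helper22.Half

open Cfsg.Agent.Lib.Helper68.Half

section
variable {q : ℕ} [Fact q.Prime] {V : Type u} [AddCommGroup V] [Module (ZMod q) V]
  {G : Type v} [Group G] (ρ : G →* (V ≃ₗ[ZMod q] V))

theorem rho_mul (a b : G) (w : V) : ρ (a * b) w = ρ a (ρ b w) := by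
  rw [map_mul]; rfl

theorem rho_one (w : V) : ρ 1 w = w := by
  rw [map_one]; rfl

theorem rho_inv_apply (a : G) (w : V) : ρ a⁻¹ (ρ a w) = w := by
  rw [← rho_mul, inv_mul_cancel, rho_one]

theorem rho_apply_inv (a : G) (w : V) : ρ a (ρ a⁻¹ w) = w := by
  rw [← rho_mul, mul_inv_cancel, rho_one]

theorem perm_fin_two (σ : Equiv.Perm (Fin 2)) (h : orderOf σ = 2) : σ 0 = 1 ∧ σ 1 = 0 := by
  have h1 : σ ≠ 1 := by
    intro h1
    rw [h1, orderOf_one] at h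
    omega
  clear h
  revert σ
  decide

/-- Shared facts about an imprimitivity decomposition into two blocks. -/
theorem impr2_facts {H : Subgroup G} {W : Fin 2 → Submodule (ZMod q) V} (hI : Impr 2 ρ H W) :
    W 0 ⊔ W 1 = ⊤ ∧ (∀ x ∈ W 0, x ∈ W 1 → x = 0) ∧
    (∀ a₀ b₀ a₁ b₁ : V, a₀ ∈ W 0 → b₀ ∈ W 0 → a₁ ∈ W 1 → b₁ ∈ W 1 →
      a₀ + a₁ = b₀ + b₁ → a₀ = b₀ ∧ a₁ = b₁) ∧
    (∀ g : G, g ∉ H → (∀ w ∈ W 0, ρ g w ∈ W 1) ∧ (∀ w ∈ W 1, ρ g w ∈ W 0) ∧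
      (∀ w ∈ W 1, ∃ w0 ∈ W 0, ρ g w0 = w)) ∧
    (∀ a b : G, a ∉ H → b ∉ H → a * b ∈ H) ∧ (∀ a : G, a ∉ H → a⁻¹ ∉ H) ∧
    (∃ g₀ : G, g₀ ∉ H) := by
  obtain ⟨hidx, htop, hind, hHinv, hfix, hswap⟩ := hI
  have hsup : W 0 ⊔ W 1 = ⊤ := by
    rw [← htop]
    apply le_antisymm
    · exact sup_le (le_iSup W 0) (le_iSup W 1)
    · apply iSup_le
      intro i
      fin_cases i
      · exact le_sup_left
      · exact le_sup_right
  have hdisj : ∀ x ∈ W 0, x ∈ W 1 → x = 0 := by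
    have hd : Disjoint (W 0) (W 1) := hind.pairwiseDisjoint (by decide : (0 : Fin 2) ≠ 1)
    exact Submodule.disjoint_def.mp hd
  have F3 : ∀ a₀ b₀ a₁ b₁ : V, a₀ ∈ W 0 → b₀ ∈ W 0 → a₁ ∈ W 1 → b₁ ∈ W 1 →
      a₀ + a₁ = b₀ + b₁ → a₀ = b₀ ∧ a₁ = b₁ := by
    intro a₀ b₀ a₁ b₁ ha₀ hb₀ ha₁ hb₁ h
    have h1 : a₀ - b₀ = b₁ - a₁ := by
      rw [sub_eq_sub_iff_add_eq_add, h, add_comm]
    have h2 : a₀ - b₀ = 0 :=
      hdisj _ ((W 0).sub_mem ha₀ hb₀) (by rw [h1]; exact (W 1).sub_mem hb₁ ha₁)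
    have h3 : b₁ - a₁ = 0 := by rw [← h1]; exact h2
    exact ⟨sub_eq_zero.mp h2, (sub_eq_zero.mp h3).symm⟩
  refine ⟨hsup, hdisj, F3, ?_, ?_, ?_, ?_⟩
  · intro g hg
    obtain ⟨σ, hσ, hmap⟩ := hswap g hg
    obtain ⟨s0, s1⟩ := perm_fin_two σ hσ
    have m0 := hmap 0
    have m1 := hmap 1
    rw [s0] at m0
    rw [s1] at m1
    refine ⟨?_, ?_, ?_⟩
    · intro w hw
      rw [← m0]
      exact Submodule.mem_map_of_mem hw
    · intro w hw
      rw [← m1]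
      exact Submodule.mem_map_of_mem hw
    · intro w hw
      rw [← m0] at hw
      obtain ⟨w0, hw0, e⟩ := Submodule.mem_map.mp hw
      exact ⟨w0, hw0, e⟩
  · intro a b ha hb
    rw [Subgroup.mul_mem_iff_of_index_two hidx]
    exact ⟨fun h => absurd h ha, fun h => absurd h hb⟩
  · intro a ha h
    exact ha (by simpa using H.inv_mem h)
  · by_contra hcon
    push_neg at hcon
    have : H = ⊤ := (Subgroup.eq_top_iff' H).mpr hcon
    rw [this, Subgroup.index_top] at hidx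
    omega

end

/-- [IMPBASIS] -/
theorem pkgImpBasis : PkgImpBasis.{u, v} := by
  intro q _ V _ _ _ _ G _ _ ρ hq2 hinj hEq H W hImpr hcard
  obtain ⟨hsup, hdisj, F3, hout, hmul, hinvout, g₀, hg₀⟩ := impr2_facts ρ hImpr
  obtain ⟨hidx, htop, hind, hHinv, hfix, hswap⟩ := hImpr
  have hq : q.Prime := Fact.out
  have he₀ : ∃ e₀ ∈ W 0, e₀ ≠ 0 := by
    by_contra hcon
    push_neg at hcon
    have : Nat.card (W 0) = 1 := by
      rw [Nat.card_eq_one_iff_unique]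
      refine ⟨⟨fun a b => Subtype.ext ?_⟩, ⟨0⟩⟩
      rw [hcon a.1 a.2, hcon b.1 b.2]
    rw [this] at hcard
    exact hq.one_lt.ne hcard
  obtain ⟨e₀, he₀W, he₀0⟩ := he₀
  have hW0 : ∀ w ∈ W 0, ∃ c : ZMod q, w = c • e₀ := by
    let f : ZMod q → W 0 := fun c => ⟨c • e₀, (W 0).smul_mem c he₀W⟩
    have hf : Function.Injective f := by
      intro c c' h
      have h' : c • e₀ = c' • e₀ := congrArg Subtype.val h
      have h2 : (c - c') • e₀ = 0 := by rw [sub_smul, h', sub_self]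
      rcases smul_eq_zero.mp h2 with h3 | h3
      · exact sub_eq_zero.mp h3
      · exact absurd h3 he₀0
    have hb : Function.Bijective f :=
      hf.bijective_of_nat_card_le (by rw [hcard, Nat.card_zmod])
    intro w hw
    obtain ⟨c, hc⟩ := hb.2 ⟨w, hw⟩
    exact ⟨c, (congrArg Subtype.val hc).symm⟩
  obtain ⟨e₁, he₁def⟩ : ∃ e₁ : V, e₁ = ρ g₀ e₀ := ⟨_, rfl⟩
  have he₁W : e₁ ∈ W 1 := by rw [he₁def]; exact (hout g₀ hg₀).1 e₀ he₀W
  have he₁0 : e₁ ≠ 0 := by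
    intro h
    apply he₀0
    have : ρ g₀ e₀ = ρ g₀ 0 := by rw [map_zero, ← he₁def]; exact h
    exact (ρ g₀).injective this
  have hW1 : ∀ w ∈ W 1, ∃ c : ZMod q, w = c • e₁ := by
    intro w hw
    obtain ⟨w0, hw0, e⟩ := (hout g₀ hg₀).2.2 w hw
    obtain ⟨c, hc⟩ := hW0 w0 hw0
    refine ⟨c, ?_⟩
    rw [← e, hc, map_smul, he₁def]
  have hdec : ∀ v : V, ∃ c₀ c₁ : ZMod q, v = c₀ • e₀ + c₁ • e₁ := by
    intro v
    have hv : v ∈ W 0 ⊔ W 1 := by rw [hsup]; exact Submodule.mem_top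
    obtain ⟨a, ha, b, hb, hab⟩ := Submodule.mem_sup.mp hv
    obtain ⟨c₀, hc₀⟩ := hW0 a ha
    obtain ⟨c₁, hc₁⟩ := hW1 b hb
    exact ⟨c₀, c₁, by rw [← hab, hc₀, hc₁]⟩
  have huniq : ∀ c₀ c₁ : ZMod q, c₀ • e₀ + c₁ • e₁ = 0 → c₀ = 0 ∧ c₁ = 0 := by
    intro c₀ c₁ h
    have h' := F3 (c₀ • e₀) 0 (c₁ • e₁) 0 ((W 0).smul_mem _ he₀W) (W 0).zero_mem
      ((W 1).smul_mem _ he₁W) (W 1).zero_mem (by rw [h, add_zero])
    refine ⟨?_, ?_⟩
    · rcases smul_eq_zero.mp h'.1 with h3 | h3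
      · exact h3
      · exact absurd h3 he₀0
    · rcases smul_eq_zero.mp h'.2 with h3 | h3
      · exact h3
      · exact absurd h3 he₁0
  have hH1 : ∀ h : G, ρ h e₀ = e₀ → ρ h e₁ = e₁ → h = 1 := by
    intro h h0 h1
    apply hinj
    rw [map_one]
    ext v
    obtain ⟨c₀, c₁, hv⟩ := hdec v
    rw [hv, map_add, map_smul, map_smul, h0, h1]
    rfl
  obtain ⟨h₀, hh₀H, hh₀1, hh₀fix⟩ := hfix 0
  have hh₀e₀ : ρ h₀ e₀ = e₀ := hh₀fix e₀ he₀W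
  have hSt_ne : ∀ v : V, v ≠ 0 → St ρ v ≠ ⊥ := by
    intro v hv hbot
    have h1 : Nat.card (St ρ v) = 1 := by rw [hbot]; exact Subgroup.card_bot
    have h2 : Nat.card (St ρ e₀) = 1 := by rw [← hEq v e₀ hv he₀0]; exact h1
    have h3 : St ρ e₀ = ⊥ := Subgroup.card_eq_one.mp h2
    have h4 : h₀ ∈ St ρ e₀ := hh₀e₀
    rw [h3, Subgroup.mem_bot] at h4
    exact hh₀1 h4
  have hvc0 : ∀ c : ZMod q, e₀ + c • e₁ ≠ 0 := by
    intro c h
    have := huniq 1 c (by rw [one_smul]; exact h)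
    exact one_ne_zero this.1
  have hgc : ∀ c : ZMod q, c ≠ 0 → ∃ g : G, g ∉ H ∧ ρ g e₀ = c • e₁ ∧ ρ g (c • e₁) = e₀ ∧
      (∀ g' : G, ρ g' (e₀ + c • e₁) = e₀ + c • e₁ → g' = 1 ∨ g' = g) := by
    intro c hc
    have hHv : ∀ h ∈ H, ρ h (e₀ + c • e₁) = e₀ + c • e₁ → h = 1 := by
      intro h hh hfixv
      rw [map_add] at hfixv
      have h' := F3 (ρ h e₀) e₀ (ρ h (c • e₁)) (c • e₁) (hHinv h hh 0 e₀ he₀W) he₀W
        (hHinv h hh 1 _ ((W 1).smul_mem c he₁W)) ((W 1).smul_mem c he₁W) hfixv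
      have h1 : ρ h e₁ = e₁ := by
        have h2 := h'.2
        rw [map_smul] at h2
        exact smul_right_injective V hc h2
      exact hH1 h h'.1 h1
    have hex : ∃ g ∈ St ρ (e₀ + c • e₁), g ≠ 1 := by
      by_contra hcon
      push_neg at hcon
      exact hSt_ne _ (hvc0 c) ((Subgroup.eq_bot_iff_forall _).mpr hcon)
    obtain ⟨g, hgSt, hg1⟩ := hex
    have hgfix0 : ρ g (e₀ + c • e₁) = e₀ + c • e₁ := hgSt
    have hgH : g ∉ H := fun hh => hg1 (hHv g hh hgfix0)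
    have hgo := hout g hgH
    have hgfix := hgfix0
    rw [map_add] at hgfix
    have h' := F3 (ρ g (c • e₁)) e₀ (ρ g e₀) (c • e₁) (hgo.2.1 _ ((W 1).smul_mem c he₁W)) he₀W
      (hgo.1 e₀ he₀W) ((W 1).smul_mem c he₁W) (by rw [add_comm]; exact hgfix)
    refine ⟨g, hgH, h'.2, h'.1, ?_⟩
    intro g' hg'
    by_cases hg'H : g' ∈ H
    · left; exact hHv g' hg'H hg'
    · right
      have hk : g⁻¹ * g' ∈ H := hmul _ _ (hinvout g hgH) hg'H
      have hk2 : ρ (g⁻¹ * g') (e₀ + c • e₁) = e₀ + c • e₁ := by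
        rw [rho_mul, hg']
        have := rho_inv_apply ρ g (e₀ + c • e₁)
        rw [hgfix0] at this
        exact this
      have := hHv _ hk hk2
      exact (inv_mul_eq_one.mp this).symm
  obtain ⟨x₀, hx₀H, hx₀e₀, hx₀e₁, hx₀u⟩ := hgc 1 one_ne_zero
  rw [one_smul] at hx₀e₀ hx₀e₁
  have hcard2 : Nat.card (St ρ e₀) = 2 := by
    rw [← hEq (e₀ + (1 : ZMod q) • e₁) e₀ (hvc0 1) he₀0]
    rw [Nat.card_eq_two_iff]
    have hx₀St : x₀ ∈ St ρ (e₀ + (1 : ZMod q) • e₁) := by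
      show ρ x₀ (e₀ + (1 : ZMod q) • e₁) = e₀ + (1 : ZMod q) • e₁
      rw [one_smul, map_add, hx₀e₀, hx₀e₁, add_comm]
    have hx₀1 : x₀ ≠ 1 := fun h => hx₀H (by rw [h]; exact H.one_mem)
    refine ⟨⟨1, Subgroup.one_mem _⟩, ⟨x₀, hx₀St⟩, ?_, ?_⟩
    · intro h
      exact hx₀1 (congrArg Subtype.val h).symm
    · ext ⟨g', hg'⟩
      simp only [Set.mem_insert_iff, Set.mem_singleton_iff, Set.mem_univ, iff_true]
      rcases hx₀u g' hg' with h | h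
      · left; exact Subtype.ext h
      · right; exact Subtype.ext h
  have hSt_e₀ : ∀ h : G, ρ h e₀ = e₀ → h = 1 ∨ h = h₀ := by
    intro h hh
    by_contra hcon
    push_neg at hcon
    obtain ⟨y, hy1, hyu⟩ := (Nat.card_eq_two_iff' (1 : St ρ e₀)).mp hcard2
    have a1 : (⟨h, hh⟩ : St ρ e₀) = y := hyu _ (fun e => hcon.1 (congrArg Subtype.val e))
    have a2 : (⟨h₀, hh₀e₀⟩ : St ρ e₀) = y := hyu _ (fun e => hh₀1 (congrArg Subtype.val e))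
    exact hcon.2 (congrArg Subtype.val (a1.trans a2.symm))
  have hh₀sq : h₀ * h₀ = 1 := by
    have : ρ (h₀ * h₀) e₀ = e₀ := by rw [rho_mul, hh₀e₀, hh₀e₀]
    rcases hSt_e₀ _ this with h | h
    · exact h
    · exfalso
      apply hh₀1
      have := congrArg (fun x => h₀⁻¹ * x) h
      simpa using this
  have hh₀e₁ : ρ h₀ e₁ = -e₁ := by
    obtain ⟨β, hβ⟩ := hW1 (ρ h₀ e₁) (hHinv h₀ hh₀H 1 e₁ he₁W)
    have h2 : ρ (h₀ * h₀) e₁ = e₁ := by rw [hh₀sq, rho_one]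
    rw [rho_mul, hβ, map_smul, hβ, smul_smul] at h2
    have h3 : (β * β - 1) • e₁ = 0 := by rw [sub_smul, h2, one_smul, sub_self]
    have h4 : β * β - 1 = 0 := by
      rcases smul_eq_zero.mp h3 with h | h
      · exact h
      · exact absurd h he₁0
    have h5 : (β - 1) * (β + 1) = 0 := by
      have : (β - 1) * (β + 1) = β * β - 1 := by ring
      rw [this]; exact h4
    rcases mul_eq_zero.mp h5 with h | h
    · exfalso
      have : β = 1 := sub_eq_zero.mp h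
      rw [this, one_smul] at hβ
      exact hh₀1 (hH1 h₀ hh₀e₀ hβ)
    · have : β = -1 := eq_neg_of_add_eq_zero_left h
      rw [hβ, this, neg_smul, one_smul]
  have hha : ∀ a : ZMod q, a ≠ 0 → ∃ h ∈ H, ρ h e₀ = a • e₀ ∧ ρ h e₁ = a⁻¹ • e₁ := by
    intro a ha
    obtain ⟨g, hgH, hge₀, hge₁, -⟩ := hgc a ha
    have i1 : ρ x₀⁻¹ e₁ = e₀ := by
      have := rho_inv_apply ρ x₀ e₀
      rw [hx₀e₀] at this
      exact this
    have i2 : ρ x₀⁻¹ e₀ = e₁ := by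
      have := rho_inv_apply ρ x₀ e₁
      rw [hx₀e₁] at this
      exact this
    refine ⟨x₀⁻¹ * g, hmul _ _ (hinvout x₀ hx₀H) hgH, ?_, ?_⟩
    · rw [rho_mul, hge₀, map_smul, i1]
    · have h1 : ρ g e₁ = a⁻¹ • e₀ := by
        rw [map_smul] at hge₁
        rw [← hge₁, smul_smul, inv_mul_cancel₀ ha, one_smul]
      rw [rho_mul, h1, map_smul, i2]
  refine ⟨e₀, e₁, x₀, hidx, hx₀H, hx₀e₀, hx₀e₁, hha, ⟨h₀, hh₀H, hh₀e₀, hh₀e₁⟩, ?_, hdec, huniq⟩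
  intro h hh
  obtain ⟨a, ha⟩ := hW0 (ρ h e₀) (hHinv h hh 0 e₀ he₀W)
  have ha0 : a ≠ 0 := by
    intro h0
    rw [h0, zero_smul] at ha
    apply he₀0
    have : ρ h e₀ = ρ h 0 := by rw [map_zero]; exact ha
    exact (ρ h).injective this
  obtain ⟨k, hkH, hke₀, hke₁⟩ := hha a ha0
  refine ⟨a, ha0, ha, ?_⟩
  have hfix' : ρ (k⁻¹ * h) e₀ = e₀ := by
    rw [rho_mul, ha, ← hke₀]
    exact rho_inv_apply ρ k e₀
  rcases hSt_e₀ _ hfix' with h1 | h1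
  · left
    have : h = k := (inv_mul_eq_one.mp h1).symm
    rw [this]; exact hke₁
  · right
    have : h = k * h₀ := by rw [← h1]; group
    rw [this, rho_mul, hh₀e₁, map_neg, hke₁]

end Cfsg.Agent.Lib.Helper22.Half
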